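import Mathlib

/-!
Abstract binary Golay codes: self-dual codes of length 24 and minimum weight at least 8.
Character sums, self-duality, second and fourth moments of the weight enumerator.
-/

set_option autoImplicit false

namespace Cfsg.Agent.Lib.GolayAbs.Basic

open Finset

/-- Ambient space. -/
abbrev V := Fin 24 → ZMod 2

/-- The sign character of `ZMod 2`. -/
def s (a : ZMod 2) : ℤ := if a = 0 then 1 else -1

lemma s_add : ∀ a b : ZMod 2, s (a + b) = s a * s b := by decide
@[simp] lemma s_zero : s 0 = 1 := by decide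
@[simp] lemma s_one : s 1 = -1 := by decide

lemma zmod2_cases : ∀ a : ZMod 2, a = 0 ∨ a = 1 := by decide
lemma zmod2_add_self : ∀ a : ZMod 2, a + a = 0 := by decide
lemma zmod2_mul_self : ∀ a : ZMod 2, a * a = a := by decide
lemma zmod2_sub : ∀ a b : ZMod 2, a - b = a + b := by decide

/-- Dot product. -/
def dot (v x : V) : ZMod 2 := ∑ i, v i * x i

lemma dot_comm (v x : V) : dot v x = dot x v := by
  unfold dot
  exact sum_congr rfl (fun i _ => mul_comm _ _)

lemma dot_add_left (a v x : V) : dot (a + v) x = dot a x + dot v x := by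
  unfold dot
  rw [← sum_add_distrib]
  exact sum_congr rfl (fun i _ => by simp [add_mul])

lemma dot_add_right (v x y : V) : dot v (x + y) = dot v x + dot v y := by
  rw [dot_comm, dot_add_left, dot_comm x, dot_comm y]

lemma dot_single (v : V) (i : Fin 24) : dot v (Pi.single i 1) = v i := by
  unfold dot
  rw [sum_eq_single i]
  · simp
  · intro j _ hj
    simp [Pi.single_eq_of_ne hj]
  · simp

@[simp] lemma dot_zero (v : V) : dot v 0 = 0 := by
  unfold dot; simp

/-- Support of a word. -/
def supp (w : V) : Finset (Fin 24) := univ.filter (fun i => w i ≠ 0)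

lemma hammingNorm_eq_card (w : V) : hammingNorm w = (supp w).card := rfl

lemma mem_supp {w : V} {i : Fin 24} : i ∈ supp w ↔ w i = 1 := by
  simp only [supp, mem_filter, mem_univ, true_and]
  rcases zmod2_cases (w i) with h | h <;> simp [h]

lemma not_mem_supp {w : V} {i : Fin 24} : i ∉ supp w ↔ w i = 0 := by
  simp only [supp, mem_filter, mem_univ, true_and, not_not]

lemma supp_injective : Function.Injective supp := by
  intro w w' h
  ext i
  by_cases hi : i ∈ supp w
  · have hi' : i ∈ supp w' := h ▸ hi
    rw [mem_supp.1 hi, mem_supp.1 hi']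
  · have hi' : i ∉ supp w' := h ▸ hi
    rw [not_mem_supp.1 hi, not_mem_supp.1 hi']

lemma supp_add (a b : V) : supp (a + b) = symmDiff (supp a) (supp b) := by
  ext i
  rw [Finset.mem_symmDiff, mem_supp, mem_supp, mem_supp, Pi.add_apply]
  rcases zmod2_cases (a i) with h | h <;> rcases zmod2_cases (b i) with h' | h' <;>
    simp [h, h', show (1 : ZMod 2) + 1 = 0 from rfl]

/-- The norm formula. -/
lemma norm_add (a b : V) :
    hammingNorm (a + b) + 2 * (supp a ∩ supp b).card = hammingNorm a + hammingNorm b := by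
  simp only [hammingNorm_eq_card, supp_add]
  have h1 : (symmDiff (supp a) (supp b)) = (supp a \ supp b) ∪ (supp b \ supp a) := rfl
  rw [h1, card_union_of_disjoint (disjoint_sdiff_sdiff)]
  have h2 := card_sdiff_add_card_inter (supp a) (supp b)
  have h3 := card_sdiff_add_card_inter (supp b) (supp a)
  rw [inter_comm] at h3
  omega

lemma norm_add_le (a b : V) : hammingNorm (a + b) ≤ hammingNorm a + hammingNorm b := by
  have := norm_add a b
  omega

lemma norm_single (i : Fin 24) : hammingNorm (Pi.single i 1 : V) = 1 := by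
  rw [hammingNorm_eq_card]
  have : supp (Pi.single i 1 : V) = {i} := by
    ext j
    rw [mem_supp, mem_singleton]
    by_cases h : j = i
    · simp [h]
    · simp [h]
  rw [this, card_singleton]

lemma norm_one : hammingNorm (1 : V) = 24 := by
  rw [hammingNorm_eq_card]
  have : supp (1 : V) = univ := by
    ext j
    simp [mem_supp]
  rw [this, card_univ]
  simp

/-- Complement. -/
lemma norm_one_add (w : V) : hammingNorm (1 + w) + hammingNorm w = 24 := by
  have := norm_add 1 w
  rw [norm_one] at this
  have h : supp (1 : V) ∩ supp w = supp w := by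
    apply inter_eq_right.2
    intro i _
    simp [mem_supp]
  rw [h, ← hammingNorm_eq_card] at this
  omega

/-- The sum of signs. -/
def f (w : V) : ℤ := ∑ i, s (w i)

lemma f_eq (w : V) : f w = 24 - 2 * (hammingNorm w : ℤ) := by
  unfold f
  have h : ∀ i, s (w i) = 1 - 2 * (if i ∈ supp w then (1 : ℤ) else 0) := by
    intro i
    by_cases hi : i ∈ supp w
    · rw [mem_supp] at hi
      simp [mem_supp, hi]
    · have := hi
      rw [not_mem_supp] at this
      simp [hi, this]
  rw [sum_congr rfl (fun i _ => h i), sum_sub_distrib, ← mul_sum, sum_const, card_univ,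
    sum_ite_mem, univ_inter, sum_const, hammingNorm_eq_card]
  simp

lemma s_dot_single_add (w : V) (i j : Fin 24) :
    s (dot w (Pi.single i 1 + Pi.single j 1)) = s (w i) * s (w j) := by
  rw [dot_add_right, dot_single, dot_single, s_add]

/-- Structure of an abstract Golay code. -/
structure IsGolay (C : Submodule (ZMod 2) V) : Prop where
  dim : Module.finrank (ZMod 2) C = 12
  orth : ∀ v ∈ C, ∀ w ∈ C, ∑ i, v i * w i = 0
  min : ∀ w ∈ C, w ≠ 0 → 8 ≤ hammingNorm w

section

open Classical in
/-- The code as a finset. -/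
noncomputable def CF (C : Submodule (ZMod 2) V) : Finset V := univ.filter (· ∈ C)

lemma mem_CF {C : Submodule (ZMod 2) V} {v : V} : v ∈ CF C ↔ v ∈ C := by
  classical
  simp [CF]

variable {C : Submodule (ZMod 2) V}

lemma card_CF (hC : Module.finrank (ZMod 2) C = 12) : (CF C).card = 4096 := by
  classical
  have h1 : (CF C).card = Fintype.card C := by
    rw [Fintype.card_subtype]
    unfold CF
    congr
  have h2 := Module.card_eq_pow_finrank (K := ZMod 2) (V := C)
  rw [h1, h2, hC, ZMod.card]
  norm_num

/-- Translation invariance. -/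
lemma sum_translate (g : V → ℤ) {a : V} (ha : a ∈ C) :
    ∑ v ∈ CF C, g (a + v) = ∑ v ∈ CF C, g v := by
  apply Finset.sum_nbij' (fun v => a + v) (fun v => a + v)
  · intro v hv
    rw [mem_CF] at hv ⊢
    exact C.add_mem ha hv
  · intro v hv
    rw [mem_CF] at hv ⊢
    exact C.add_mem ha hv
  · intro v _
    ext i
    simp only [Pi.add_apply]
    rw [← add_assoc, zmod2_add_self, zero_add]
  · intro v _
    ext i
    simp only [Pi.add_apply]
    rw [← add_assoc, zmod2_add_self, zero_add]
  · intro v _
    rfl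

/-- Orthogonality of characters: a non-trivial functional. -/
lemma char_sum_zero {x : V} (hx : ∃ a ∈ C, dot a x ≠ 0) :
    ∑ v ∈ CF C, s (dot v x) = 0 := by
  obtain ⟨a, ha, hax⟩ := hx
  have hax1 : dot a x = 1 := (zmod2_cases _).resolve_left hax
  have h := sum_translate (fun v => s (dot v x)) ha
  have h2 : ∑ v ∈ CF C, s (dot (a + v) x) = - ∑ v ∈ CF C, s (dot v x) := by
    rw [← sum_neg_distrib]
    apply sum_congr rfl
    intro v _
    rw [dot_add_left, s_add, hax1, s_one]
    ring
  linarith

lemma char_sum_one {x : V} (hx : ∀ a ∈ C, dot a x = 0) :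
    ∑ v ∈ CF C, s (dot v x) = (CF C).card := by
  rw [sum_congr rfl (g := fun _ => (1 : ℤ))]
  · simp
  · intro v hv
    rw [hx v (mem_CF.1 hv), s_zero]

end

variable {C : Submodule (ZMod 2) V}

/-- Self-duality. -/
theorem IsGolay.mem_of_perp (hC : IsGolay C) {x : V} (hx : ∀ a ∈ C, dot a x = 0) : x ∈ C := by
  classical
  set PF : Finset V := univ.filter (fun x => ∀ a ∈ C, dot a x = 0) with hPF
  have hdouble : ∑ x : V, ∑ v ∈ CF C, s (dot v x) = ∑ v ∈ CF C, ∑ x : V, s (dot v x) :=
    sum_comm
  have hL : ∑ x : V, ∑ v ∈ CF C, s (dot v x) = (PF.card : ℤ) * (CF C).card := by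
    have : ∀ x : V, ∑ v ∈ CF C, s (dot v x) =
        if x ∈ PF then ((CF C).card : ℤ) else 0 := by
      intro x
      split_ifs with h
      · rw [hPF, mem_filter] at h
        exact char_sum_one h.2
      · rw [hPF, mem_filter] at h
        apply char_sum_zero
        by_contra hcon
        push Not at hcon
        exact h ⟨mem_univ _, hcon⟩
    rw [sum_congr rfl (fun x _ => this x), sum_ite_mem, univ_inter, sum_const]
    simp
  have hR : ∑ v ∈ CF C, ∑ x : V, s (dot v x) = 2 ^ 24 := by
    rw [sum_eq_single (0 : V)]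
    · have : ∀ x : V, dot (0 : V) x = 0 := fun x => by
        rw [dot_comm, dot_zero]
      simp [this, ZMod.card]
    · intro v _ hv
      have hex : ∃ i, v i ≠ 0 := by
        by_contra hcon
        push Not at hcon
        exact hv (funext hcon)
      obtain ⟨i, hi⟩ := hex
      have hne : ∃ a ∈ (⊤ : Submodule (ZMod 2) V), dot a v ≠ 0 := by
        refine ⟨Pi.single i 1, trivial, ?_⟩
        rw [dot_comm, dot_single]
        exact hi
      have := char_sum_zero (C := ⊤) hne
      have h2 : CF (⊤ : Submodule (ZMod 2) V) = univ := by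
        ext; simp [mem_CF]
      rw [h2] at this
      rw [← this]
      exact sum_congr rfl (fun x _ => by rw [dot_comm])
    · intro h
      exact absurd (mem_CF.2 C.zero_mem) h
  have hcard := card_CF hC.dim
  have hPFcard : PF.card = 4096 := by
    have h := hL.symm.trans (hdouble.trans hR)
    rw [hcard] at h
    have h' : (PF.card : ℤ) * 4096 = 4096 * 4096 := by
      rw [show ((4096 : ℕ) : ℤ) = 4096 from rfl] at h
      rw [h]; norm_num
    have := mul_right_cancel₀ (by norm_num : (4096 : ℤ) ≠ 0) h'
    exact_mod_cast this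
  have hsub : CF C ⊆ PF := by
    intro v hv
    rw [hPF, mem_filter]
    refine ⟨mem_univ _, fun a ha => ?_⟩
    exact hC.orth a ha v (mem_CF.1 hv)
  have heq : CF C = PF := eq_of_subset_of_card_le hsub (by rw [hPFcard, hcard])
  have : x ∈ PF := by
    rw [hPF, mem_filter]
    exact ⟨mem_univ _, hx⟩
  rw [← heq] at this
  exact mem_CF.1 this

/-- A nonzero word of small weight is detected by the code. -/
theorem IsGolay.exists_dot_ne (hC : IsGolay C) {x : V} (hx : x ≠ 0) (hw : hammingNorm x < 8) :
    ∃ a ∈ C, dot a x ≠ 0 := by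
  by_contra hcon
  push Not at hcon
  have := hC.min x (hC.mem_of_perp hcon) hx
  omega

lemma dot_self (w : V) : dot w w = ((hammingNorm w : ℕ) : ZMod 2) := by
  unfold dot
  rw [hammingNorm_eq_card, supp, card_filter]
  push_cast
  apply sum_congr rfl
  intro i _
  rcases zmod2_cases (w i) with h | h <;> simp [h]

lemma dot_one (a : V) : dot a 1 = dot a a := by
  unfold dot
  apply sum_congr rfl
  intro i _
  rw [zmod2_mul_self]
  simp

theorem IsGolay.one_mem (hC : IsGolay C) : (1 : V) ∈ C := by
  apply hC.mem_of_perp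
  intro a ha
  rw [dot_one]
  exact hC.orth a ha a ha

theorem IsGolay.even_norm (hC : IsGolay C) {w : V} (hw : w ∈ C) : 2 ∣ hammingNorm w := by
  have h : dot w w = 0 := hC.orth w hw w hw
  rw [dot_self] at h
  exact (ZMod.natCast_eq_zero_iff _ 2).1 h

/-- The possible weights of words other than `0` and `1`. -/
theorem IsGolay.norm_range (hC : IsGolay C) {w : V} (hw : w ∈ C) (h0 : w ≠ 0) (h1 : w ≠ 1) :
    8 ≤ hammingNorm w ∧ hammingNorm w ≤ 16 := by
  have h2 : 1 + w ∈ C := C.add_mem hC.one_mem hw
  have h3 : (1 + w : V) ≠ 0 := by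
    intro h
    apply h1
    ext i
    have := congrFun h i
    simp only [Pi.add_apply, Pi.one_apply, Pi.zero_apply] at this
    rcases zmod2_cases (w i) with h' | h'
    · rw [h'] at this; simp at this
    · simp [h']
  have h4 := hC.min _ h2 h3
  have h5 := norm_one_add w
  have h6 := hC.min w hw h0
  omega

/-- Second moment. -/
theorem IsGolay.moment_two (hC : IsGolay C) : ∑ w ∈ CF C, f w ^ 2 = 24 * 4096 := by
  have h1 : ∀ w : V, f w ^ 2 = ∑ i, ∑ j, s (dot w (Pi.single i 1 + Pi.single j 1)) := by
    intro w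
    simp_rw [s_dot_single_add]
    rw [sq, f, sum_mul_sum]
  simp_rw [h1]
  rw [sum_comm]
  have h2 : ∀ i : Fin 24, ∑ w ∈ CF C, ∑ j, s (dot w (Pi.single i 1 + Pi.single j 1)) = 4096 := by
    intro i
    rw [sum_comm, sum_eq_single i]
    · rw [char_sum_one, card_CF hC.dim]
      · rfl
      · intro a _
        have : (Pi.single i 1 + Pi.single i 1 : V) = 0 := by
          ext j; simp only [Pi.add_apply, Pi.zero_apply]; exact zmod2_add_self _
        rw [this, dot_zero]
    · intro j _ hj
      apply char_sum_zero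
      apply hC.exists_dot_ne
      · intro h
        have := congrFun h i
        simp [Pi.single_eq_of_ne (Ne.symm hj)] at this
      · have h3 := norm_add_le (Pi.single i 1) (Pi.single j 1)
        rw [norm_single, norm_single] at h3
        omega
    · simp
  rw [sum_congr rfl (fun i _ => h2 i)]
  simp

/-- Predicate for a paired quadruple. -/
def paired (i j k l : Fin 24) : Prop := (i = j ∧ k = l) ∨ (i = k ∧ j = l) ∨ (i = l ∧ j = k)

instance (i j k l : Fin 24) : Decidable (paired i j k l) := by
  unfold paired; infer_instance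

lemma paired_self (i k l : Fin 24) : paired i i k l ↔ k = l := by
  unfold paired
  constructor
  · rintro (⟨_, h⟩ | ⟨h, h'⟩ | ⟨h, h'⟩)
    · exact h
    · exact h.symm.trans h'
    · exact h'.symm.trans h
  · intro h
    exact Or.inl ⟨rfl, h⟩

lemma paired_ne {i j : Fin 24} (h : i ≠ j) (k l : Fin 24) :
    paired i j k l ↔ (k = i ∧ l = j) ∨ (k = j ∧ l = i) := by
  unfold paired
  constructor
  · rintro (⟨h1, _⟩ | ⟨h1, h2⟩ | ⟨h1, h2⟩)
    · exact absurd h1 h
    · exact Or.inl ⟨h1.symm, h2.symm⟩
    · exact Or.inr ⟨h2.symm, h1.symm⟩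
  · rintro (⟨h1, h2⟩ | ⟨h1, h2⟩)
    · exact Or.inr (Or.inl ⟨h1.symm, h2.symm⟩)
    · exact Or.inr (Or.inr ⟨h2.symm, h1.symm⟩)

lemma paired_count_inner (i j : Fin 24) :
    (∑ k : Fin 24, ∑ l : Fin 24, if paired i j k l then (1 : ℤ) else 0) =
      if i = j then 24 else 2 := by
  split_ifs with h
  · subst h
    simp only [paired_self]
    simp
  · simp only [paired_ne h]
    have h1 : ∀ k l : Fin 24, (if (k = i ∧ l = j) ∨ (k = j ∧ l = i) then (1 : ℤ) else 0) =
        (if k = i then (if l = j then 1 else 0) else 0) +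
          (if k = j then (if l = i then 1 else 0) else 0) := by
      intro k l
      by_cases h2 : k = i <;> by_cases h3 : k = j <;> by_cases h4 : l = j <;> by_cases h5 : l = i
      all_goals first
        | (exfalso; exact h (h2.symm.trans h3))
        | (exfalso; exact h (h5.symm.trans h4))
        | simp [h2, h3, h4, h5, h, Ne.symm h]
    simp only [h1, sum_add_distrib]
    simp

lemma paired_count :
    (∑ i : Fin 24, ∑ j : Fin 24, ∑ k : Fin 24, ∑ l : Fin 24, if paired i j k l then (1 : ℤ) else 0)
      = 1680 := by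
  simp only [paired_count_inner]
  decide

lemma two_singles_eq_zero_iff (a b : Fin 24) : (Pi.single a 1 + Pi.single b 1 : V) = 0 ↔ a = b := by
  constructor
  · intro h
    by_contra hne
    have := congrFun h a
    simp [Pi.single_eq_of_ne hne] at this
  · rintro rfl
    ext j
    simp only [Pi.add_apply, Pi.zero_apply]
    exact zmod2_add_self _

lemma x4_eq_zero_iff (i j k l : Fin 24) :
    ((Pi.single i 1 + Pi.single j 1) + (Pi.single k 1 + Pi.single l 1) : V) = 0 ↔ paired i j k l := by
  constructor
  · intro h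
    unfold paired
    by_cases h1 : i = j
    · subst h1
      rw [(two_singles_eq_zero_iff i i).2 rfl, zero_add, two_singles_eq_zero_iff] at h
      exact Or.inl ⟨rfl, h⟩
    by_cases h2 : i = k
    · subst h2
      have : (Pi.single j 1 + Pi.single l 1 : V) = 0 := by
        ext t
        have := congrFun h t
        simp only [Pi.add_apply, Pi.zero_apply] at this ⊢
        have h3 : ∀ a b c : ZMod 2, a + b + (a + c) = b + c := by decide
        rwa [h3] at this
      rw [two_singles_eq_zero_iff] at this
      exact Or.inr (Or.inl ⟨rfl, this⟩)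
    by_cases h3 : i = l
    · subst h3
      have : (Pi.single j 1 + Pi.single k 1 : V) = 0 := by
        ext t
        have := congrFun h t
        simp only [Pi.add_apply, Pi.zero_apply] at this ⊢
        have h3 : ∀ a b c : ZMod 2, a + b + (c + a) = b + c := by decide
        rwa [h3] at this
      rw [two_singles_eq_zero_iff] at this
      exact Or.inr (Or.inr ⟨rfl, this⟩)
    exfalso
    have := congrFun h i
    simp [Pi.single_eq_of_ne h1, Pi.single_eq_of_ne h2, Pi.single_eq_of_ne h3] at this
  · rintro (⟨rfl, rfl⟩ | ⟨rfl, rfl⟩ | ⟨rfl, rfl⟩)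
    · rw [(two_singles_eq_zero_iff _ _).2 rfl, (two_singles_eq_zero_iff _ _).2 rfl, zero_add]
    · ext t
      simp only [Pi.add_apply, Pi.zero_apply]
      have h3 : ∀ a b : ZMod 2, a + b + (a + b) = 0 := by decide
      exact h3 _ _
    · ext t
      simp only [Pi.add_apply, Pi.zero_apply]
      have h3 : ∀ a b : ZMod 2, a + b + (b + a) = 0 := by decide
      exact h3 _ _

lemma s_x4 (w : V) (i j k l : Fin 24) :
    s (dot w ((Pi.single i 1 + Pi.single j 1) + (Pi.single k 1 + Pi.single l 1))) =
      s (w i) * s (w j) * (s (w k) * s (w l)) := by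
  rw [dot_add_right, s_add, s_dot_single_add, s_dot_single_add]

lemma f_pow_four (w : V) : f w ^ 4 = ∑ i, ∑ j, ∑ k, ∑ l,
      s (dot w ((Pi.single i 1 + Pi.single j 1) + (Pi.single k 1 + Pi.single l 1))) := by
  simp_rw [s_x4]
  have h1 : f w * f w = ∑ i, ∑ j, s (w i) * s (w j) := by
    rw [f, sum_mul_sum]
  have : f w ^ 4 = (f w * f w) * (f w * f w) := by ring
  rw [this, h1, sum_mul]
  apply sum_congr rfl
  intro i _
  rw [sum_mul]
  apply sum_congr rfl
  intro j _
  rw [mul_sum]
  apply sum_congr rfl
  intro k _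
  rw [mul_sum]

/-- Fourth moment. -/
theorem IsGolay.moment_four (hC : IsGolay C) : ∑ w ∈ CF C, f w ^ 4 = 1680 * 4096 := by
  simp_rw [f_pow_four]
  have h2 : ∀ i j k l : Fin 24,
      ∑ w ∈ CF C, s (dot w ((Pi.single i 1 + Pi.single j 1) + (Pi.single k 1 + Pi.single l 1))) =
        if paired i j k l then (4096 : ℤ) else 0 := by
    intro i j k l
    split_ifs with h
    · rw [← x4_eq_zero_iff] at h
      rw [h, char_sum_one, card_CF hC.dim]
      · rfl
      · intro a _
        rw [dot_zero]
    · rw [← x4_eq_zero_iff] at h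
      apply char_sum_zero
      apply hC.exists_dot_ne h
      have h3 := norm_add_le (Pi.single i 1 + Pi.single j 1) (Pi.single k 1 + Pi.single l 1)
      have h4 := norm_add_le (Pi.single i 1) (Pi.single j 1)
      have h5 := norm_add_le (Pi.single k 1) (Pi.single l 1)
      simp only [norm_single] at h4 h5
      omega
  calc ∑ w ∈ CF C, ∑ i, ∑ j, ∑ k, ∑ l,
        s (dot w ((Pi.single i 1 + Pi.single j 1) + (Pi.single k 1 + Pi.single l 1)))
      = ∑ i, ∑ j, ∑ k, ∑ l, ∑ w ∈ CF C,
        s (dot w ((Pi.single i 1 + Pi.single j 1) + (Pi.single k 1 + Pi.single l 1))) := by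
        rw [sum_comm]; apply sum_congr rfl; intro i _
        rw [sum_comm]; apply sum_congr rfl; intro j _
        rw [sum_comm]; apply sum_congr rfl; intro k _
        rw [sum_comm]
    _ = ∑ i : Fin 24, ∑ j : Fin 24, ∑ k : Fin 24, ∑ l : Fin 24,
        if paired i j k l then (4096 : ℤ) else 0 := by simp_rw [h2]
    _ = 4096 * ∑ i : Fin 24, ∑ j : Fin 24, ∑ k : Fin 24, ∑ l : Fin 24,
        if paired i j k l then (1 : ℤ) else 0 := by
        simp only [mul_sum]
        apply sum_congr rfl; intro i _
        apply sum_congr rfl; intro j _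
        apply sum_congr rfl; intro k _
        apply sum_congr rfl; intro l _
        split_ifs <;> norm_num
    _ = 1680 * 4096 := by rw [paired_count]; norm_num

/-- The weight-classification: words other than `0`, `1` have weight 8, 12 or 16. -/
theorem IsGolay.norm_classify (hC : IsGolay C) {w : V} (hw : w ∈ C) (h0 : w ≠ 0) (h1 : w ≠ 1) :
    hammingNorm w = 8 ∨ hammingNorm w = 12 ∨ hammingNorm w = 16 := by
  classical
  set S : Finset V := (CF C).erase 0 |>.erase 1 with hS
  have h01 : (0 : V) ≠ 1 := by
    intro h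
    have := congrFun h 0
    simp at this
  have hsplit : ∀ g : V → ℤ, ∑ x ∈ CF C, g x = g 0 + g 1 + ∑ x ∈ S, g x := by
    intro g
    have h1mem : (1 : V) ∈ (CF C).erase 0 :=
      mem_erase.2 ⟨fun h => h01 h.symm, mem_CF.2 hC.one_mem⟩
    have h0mem : (0 : V) ∈ CF C := mem_CF.2 C.zero_mem
    rw [← add_sum_erase _ _ h0mem, ← add_sum_erase _ _ h1mem, add_assoc]
  have hf0 : f 0 = 24 := by rw [f_eq]; simp
  have hf1 : f 1 = -24 := by rw [f_eq, norm_one]; norm_num
  have hsum : ∑ x ∈ S, (f x ^ 4 - 64 * f x ^ 2) = 0 := by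
    have h2 := hsplit (fun x => f x ^ 4 - 64 * f x ^ 2)
    rw [sum_sub_distrib, ← mul_sum, hC.moment_four, hC.moment_two, hf0, hf1] at h2
    norm_num at h2
    rw [sum_sub_distrib]
    linarith
  have hrange : ∀ x ∈ S, ∃ n : ℕ, hammingNorm x = n ∧ 8 ≤ n ∧ n ≤ 16 ∧ 2 ∣ n := by
    intro x hx
    rw [hS, mem_erase, mem_erase, mem_CF] at hx
    have := hC.norm_range hx.2.2 hx.2.1 hx.1
    exact ⟨_, rfl, this.1, this.2, hC.even_norm hx.2.2⟩
  have hnonpos : ∀ x ∈ S, f x ^ 4 - 64 * f x ^ 2 ≤ 0 := by
    intro x hx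
    obtain ⟨n, hn, h8, h16, h2⟩ := hrange x hx
    rw [f_eq, hn]
    obtain ⟨m, rfl⟩ := h2
    have h4 : 4 ≤ m := by omega
    have h5 : m ≤ 8 := by omega
    interval_cases m <;> norm_num
  have hzero := (sum_eq_zero_iff_of_nonpos hnonpos).1 hsum
  have hwS : w ∈ S := by
    rw [hS, mem_erase, mem_erase, mem_CF]
    exact ⟨h1, h0, hw⟩
  have h3 := hzero w hwS
  obtain ⟨n, hn, h8, h16, h2⟩ := hrange w hwS
  rw [f_eq, hn] at h3
  rw [hn]
  obtain ⟨m, rfl⟩ := h2
  have h4 : 4 ≤ m := by omega
  have h5 : m ≤ 8 := by omega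
  interval_cases m <;> first | omega | (norm_num at h3)

/-- Doubly even. -/
theorem IsGolay.four_dvd (hC : IsGolay C) {w : V} (hw : w ∈ C) : 4 ∣ hammingNorm w := by
  by_cases h0 : w = 0
  · rw [h0, hammingNorm_zero]; exact dvd_zero _
  by_cases h1 : w = 1
  · rw [h1, norm_one]; norm_num
  rcases hC.norm_classify hw h0 h1 with h | h | h <;> rw [h] <;> norm_num

open Classical in
/-- The words of weight 8, as a finset. -/
noncomputable def octWords (C : Submodule (ZMod 2) V) : Finset V :=
  (CF C).filter (fun w => hammingNorm w = 8)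

lemma mem_octWords {w : V} : w ∈ octWords C ↔ w ∈ C ∧ hammingNorm w = 8 := by
  classical
  simp [octWords, mem_CF]

/-- There are 759 words of weight 8. -/
theorem IsGolay.card_octWords (hC : IsGolay C) : (octWords C).card = 759 := by
  classical
  set S : Finset V := (CF C).erase 0 |>.erase 1 with hS
  have h01 : (0 : V) ≠ 1 := by
    intro h
    have := congrFun h 0
    simp at this
  have hsplit : ∀ g : V → ℤ, ∑ x ∈ CF C, g x = g 0 + g 1 + ∑ x ∈ S, g x := by
    intro g
    have h1mem : (1 : V) ∈ (CF C).erase 0 :=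
      mem_erase.2 ⟨fun h => h01 h.symm, mem_CF.2 hC.one_mem⟩
    have h0mem : (0 : V) ∈ CF C := mem_CF.2 C.zero_mem
    rw [← add_sum_erase _ _ h0mem, ← add_sum_erase _ _ h1mem, add_assoc]
  have hf0 : f 0 = 24 := by rw [f_eq]; simp
  have hf1 : f 1 = -24 := by rw [f_eq, norm_one]; norm_num
  have hsum : ∑ x ∈ S, f x ^ 2 = 97152 := by
    have h2 := hsplit (fun x => f x ^ 2)
    rw [hC.moment_two, hf0, hf1] at h2
    norm_num at h2
    linarith
  -- words of weight 8 and 16
  set A : Finset V := octWords C with hA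
  set B : Finset V := S.filter (fun w => hammingNorm w = 16) with hB
  have hAS : A = S.filter (fun w => hammingNorm w = 8) := by
    ext w
    rw [hA, mem_octWords, hS, mem_filter, mem_erase, mem_erase, mem_CF]
    constructor
    · rintro ⟨h1, h2⟩
      refine ⟨⟨?_, ?_, h1⟩, h2⟩
      · rintro rfl; rw [norm_one] at h2; omega
      · rintro rfl; rw [hammingNorm_zero] at h2; omega
    · rintro ⟨⟨_, _, h1⟩, h2⟩
      exact ⟨h1, h2⟩
  have hAB : A.card = B.card := by
    refine Finset.card_bij' (fun w _ => 1 + w) (fun w _ => 1 + w) ?_ ?_ ?_ ?_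
    · intro w hw
      rw [hA, mem_octWords] at hw
      rw [hB, hS, mem_filter, mem_erase, mem_erase, mem_CF]
      have h3 := norm_one_add w
      have hmem : 1 + w ∈ C := C.add_mem hC.one_mem hw.1
      refine ⟨⟨?_, ?_, hmem⟩, by omega⟩
      · intro h; rw [h, norm_one] at h3; omega
      · intro h; rw [h, hammingNorm_zero] at h3; omega
    · intro w hw
      rw [hB, hS, mem_filter, mem_erase, mem_erase, mem_CF] at hw
      rw [hA, mem_octWords]
      have h3 := norm_one_add w
      exact ⟨C.add_mem hC.one_mem hw.1.2.2, by omega⟩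
    · intro w _
      ext i
      simp only [Pi.add_apply]
      rw [← add_assoc, zmod2_add_self, zero_add]
    · intro w _
      ext i
      simp only [Pi.add_apply]
      rw [← add_assoc, zmod2_add_self, zero_add]
  have hval : ∀ x ∈ S, f x ^ 2 =
      (if hammingNorm x = 8 then 64 else 0) + (if hammingNorm x = 16 then 64 else 0) := by
    intro x hx
    rw [hS, mem_erase, mem_erase, mem_CF] at hx
    rcases hC.norm_classify hx.2.2 hx.2.1 hx.1 with h | h | h <;> rw [f_eq, h] <;> norm_num
  rw [sum_congr rfl hval, sum_add_distrib, sum_ite, sum_ite] at hsum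
  simp only [sum_const_zero, add_zero, sum_const, smul_eq_mul, nsmul_eq_mul] at hsum
  rw [← hAS, ← hB, ← hAB] at hsum
  have : (A.card : ℤ) = 759 := by linarith
  exact_mod_cast this

end Cfsg.Agent.Lib.GolayAbs.Basic
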