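import Mathlib
import Cfsg.Prelude.Def_Sporadic_a
import Cfsg.Agent.Lib.GolayAbs.Basic

/-!
Abstract binary Golay codes: the octads form a Steiner system; spanning; cosets.
-/

set_option autoImplicit false

namespace Cfsg.Agent.Lib.GolayAbs.Steiner

open Finset Cfsg.Agent.Lib.GolayAbs.Basic

variable {C : Submodule (ZMod 2) V}

lemma add_ne_zero_of_ne {a b : V} (h : a ≠ b) : a + b ≠ 0 := by
  intro h0
  apply h
  ext i
  have := congrFun h0 i
  simp only [Pi.add_apply, Pi.zero_apply] at this
  have h2 : ∀ x y : ZMod 2, x + y = 0 → x = y := by decide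
  exact h2 _ _ this

/-- Two octad words sharing five points agree. -/
theorem octad_unique (hC : IsGolay C) {a b : V} (ha : a ∈ octWords C) (hb : b ∈ octWords C)
    {s : Finset (Fin 24)} (hs : 5 ≤ s.card) (hsa : s ⊆ supp a) (hsb : s ⊆ supp b) : a = b := by
  by_contra hne
  rw [mem_octWords] at ha hb
  have h1 := hC.min _ (C.add_mem ha.1 hb.1) (add_ne_zero_of_ne hne)
  have h2 := norm_add a b
  have h3 : s.card ≤ (supp a ∩ supp b).card := card_le_card (subset_inter hsa hsb)
  omega

/-- Every 5-set lies in an octad. -/
theorem octad_exists (hC : IsGolay C) (s : Finset (Fin 24)) (hs : s.card = 5) :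
    ∃ o ∈ octWords C, s ⊆ supp o := by
  classical
  set T : Finset (Finset (Fin 24)) := (octWords C).biUnion (fun o => powersetCard 5 (supp o)) with hT
  have hcardT : T.card = 42504 := by
    rw [hT, card_biUnion]
    · rw [sum_congr rfl (g := fun _ => 56)]
      · rw [sum_const, hC.card_octWords]; norm_num
      · intro o ho
        rw [card_powersetCard, ← hammingNorm_eq_card, (mem_octWords.1 ho).2]
        rfl
    · intro a ha b hb hab
      rw [Function.onFun, Finset.disjoint_left]
      intro t hta htb
      rw [mem_powersetCard] at hta htb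
      exact hab (octad_unique hC ha hb (by omega) hta.1 htb.1)
  have hsub : T ⊆ powersetCard 5 univ := by
    intro t ht
    rw [hT, mem_biUnion] at ht
    obtain ⟨o, _, ho⟩ := ht
    rw [mem_powersetCard] at ho ⊢
    exact ⟨subset_univ _, ho.2⟩
  have hcard2 : (powersetCard 5 (univ : Finset (Fin 24))).card = 42504 := by
    rw [card_powersetCard, card_univ]
    simp
    rfl
  have heq : T = powersetCard 5 univ := eq_of_subset_of_card_le hsub (by omega)
  have hmem : s ∈ T := by
    rw [heq, mem_powersetCard]
    exact ⟨subset_univ _, hs⟩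
  rw [hT, mem_biUnion] at hmem
  obtain ⟨o, ho, ho2⟩ := hmem
  exact ⟨o, ho, (mem_powersetCard.1 ho2).1⟩

/-- The Steiner system statement. -/
theorem steiner (hC : IsGolay C) :
    Cfsg.IsSteinerSystem 5 8 (Cfsg.wordsOfWeight (C : Set V) 8) := by
  refine ⟨?_, ?_⟩
  · rintro b ⟨_, hb⟩
    exact hb
  · intro s hs
    obtain ⟨o, ho, hso⟩ := octad_exists hC s hs
    have ho' := mem_octWords.1 ho
    refine ⟨supp o, ⟨⟨⟨o, ho'.1, rfl⟩, ho'.2⟩, hso⟩, ?_⟩
    rintro b ⟨⟨⟨w, hw, rfl⟩, hwc⟩, hsw⟩
    have hw' : w ∈ octWords C := mem_octWords.2 ⟨hw, hwc⟩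
    have : w = o := octad_unique hC hw' ho (by omega) hsw hso
    rw [this]
    rfl

/-- There is a word of weight 8. -/
theorem exists_octad (hC : IsGolay C) : ∃ w ∈ C, hammingNorm w = 8 := by
  have h := hC.card_octWords
  have : (octWords C).Nonempty := by
    rw [← card_pos]; omega
  obtain ⟨w, hw⟩ := this
  exact ⟨w, (mem_octWords.1 hw).1, (mem_octWords.1 hw).2⟩

/-- An octad reduces the weight of a word of weight at least 5. -/
lemma exists_reduce (hC : IsGolay C) {u : V} (hu : 5 ≤ hammingNorm u) :
    ∃ o ∈ octWords C, hammingNorm (u + o) + 2 ≤ hammingNorm u := by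
  obtain ⟨s, hs, hs5⟩ := exists_subset_card_eq (s := supp u) (n := 5) hu
  obtain ⟨o, ho, hso⟩ := octad_exists hC s hs5
  refine ⟨o, ho, ?_⟩
  have h1 := norm_add u o
  have h2 := (mem_octWords.1 ho).2
  have h3 : s.card ≤ (supp u ∩ supp o).card := card_le_card (subset_inter hs hso)
  omega

lemma add_add_cancel_right (a b : V) : a + b + b = a := by
  ext i
  simp only [Pi.add_apply]
  rw [add_assoc, zmod2_add_self, add_zero]

/-- Octads span the code. -/
theorem span_octads (hC : IsGolay C) :
    Submodule.span (ZMod 2) {w : V | w ∈ C ∧ hammingNorm w = 8} = C := by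
  apply le_antisymm
  · rw [Submodule.span_le]
    rintro w ⟨hw, _⟩
    exact hw
  · intro w hw
    induction hn : hammingNorm w using Nat.strong_induction_on generalizing w with
    | _ n ih =>
      by_cases hw0 : w = 0
      · rw [hw0]; exact Submodule.zero_mem _
      have h8 := hC.min w hw hw0
      obtain ⟨o, ho, hlt⟩ := exists_reduce hC (u := w) (by omega)
      have ho' := mem_octWords.1 ho
      have h1 := ih (hammingNorm (w + o)) (by omega) (C.add_mem hw ho'.1) rfl
      have h2 : o ∈ Submodule.span (ZMod 2) {w : V | w ∈ C ∧ hammingNorm w = 8} :=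
        Submodule.subset_span ho'
      have h3 := Submodule.add_mem _ h1 h2
      rwa [add_add_cancel_right] at h3

lemma sub_add_sub_eq : ∀ a b c : ZMod 2, (a - c) + (b - c) = a + b := by decide

lemma add_sub_swap' : ∀ a b c : ZMod 2, a + b - c = (a - c) + b := by decide

/-- The coset theorem. -/
theorem coset (hC : IsGolay C) (w : V) :
    (∃ u : V, {u : V | u - w ∈ C ∧ hammingNorm u ≤ 4} = {u} ∧ hammingNorm u ≤ 3) ∨
    ({u : V | u - w ∈ C ∧ hammingNorm u ≤ 4}.ncard = 6 ∧
      ∀ u ∈ {u : V | u - w ∈ C ∧ hammingNorm u ≤ 4}, hammingNorm u = 4 ∧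
        ∀ u' ∈ {u : V | u - w ∈ C ∧ hammingNorm u ≤ 4}, u ≠ u' →
          Disjoint (Finset.univ.filter fun i => u i ≠ 0) (Finset.univ.filter fun i => u' i ≠ 0)) := by
  classical
  set K : Set V := {u : V | u - w ∈ C ∧ hammingNorm u ≤ 4} with hK
  -- two distinct members of K have weight four and disjoint supports
  have hpair : ∀ u ∈ K, ∀ u' ∈ K, u ≠ u' →
      hammingNorm u = 4 ∧ hammingNorm u' = 4 ∧ (supp u ∩ supp u').card = 0 := by
    rintro u ⟨hu, hu4⟩ u' ⟨hu', hu4'⟩ hne
    have hmem : u + u' ∈ C := by
      have h1 := C.add_mem hu hu'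
      have h2 : u - w + (u' - w) = u + u' := by
        ext i
        exact sub_add_sub_eq _ _ _
      rwa [h2] at h1
    have h1 := hC.min _ hmem (add_ne_zero_of_ne hne)
    have h2 := norm_add u u'
    refine ⟨?_, ?_, ?_⟩ <;> omega
  -- a member of K exists
  have hne : K.Nonempty := by
    set M : Finset V := univ.filter (fun u => u - w ∈ C) with hM
    have hMne : M.Nonempty := ⟨w, by simp [hM]⟩
    obtain ⟨u₀, hu₀, hmin⟩ := exists_min_image M hammingNorm hMne
    have hu₀' : u₀ - w ∈ C := (mem_filter.1 hu₀).2
    refine ⟨u₀, hu₀', ?_⟩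
    by_contra hcon
    push Not at hcon
    obtain ⟨o, ho, hlt⟩ := exists_reduce hC (u := u₀) (by omega)
    have hmem : u₀ + o ∈ M := by
      rw [hM, mem_filter]
      refine ⟨mem_univ _, ?_⟩
      have h1 := C.add_mem hu₀' (mem_octWords.1 ho).1
      have h2 : u₀ - w + o = u₀ + o - w := by
        ext i
        exact (add_sub_swap' _ _ _).symm
      rwa [h2] at h1
    have := hmin _ hmem
    omega
  by_cases hsmall : ∃ u ∈ K, hammingNorm u ≤ 3
  · left
    obtain ⟨u, hu, hu3⟩ := hsmall
    refine ⟨u, ?_, hu3⟩
    ext u'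
    rw [Set.mem_singleton_iff]
    constructor
    · intro hu'
      by_contra hne'
      have := (hpair u hu u' hu' (Ne.symm hne')).1
      omega
    · rintro rfl
      exact hu
  · right
    push Not at hsmall
    have hfour : ∀ u ∈ K, hammingNorm u = 4 := by
      intro u hu
      have h1 := hu.2
      have h2 := hsmall u hu
      omega
    refine ⟨?_, fun u hu => ⟨hfour u hu, fun u' hu' hne' => ?_⟩⟩
    · -- the count
      obtain ⟨u, hu⟩ := hne
      set KF : Finset V := univ.filter (· ∈ K) with hKF
      have hmemKF : ∀ x, x ∈ KF ↔ x ∈ K := by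
        intro x
        simp [hKF]
      have hcov : KF.biUnion supp = univ := by
        apply eq_univ_of_forall
        intro p
        rw [mem_biUnion]
        by_cases hp : p ∈ supp u
        · exact ⟨u, (hmemKF u).2 hu, hp⟩
        · -- extend by an octad
          have hcard5 : (insert p (supp u)).card = 5 := by
            rw [card_insert_of_notMem hp, ← hammingNorm_eq_card, hfour u hu]
          obtain ⟨o, ho, hso⟩ := octad_exists hC _ hcard5
          have ho' := mem_octWords.1 ho
          have hsu : supp u ⊆ supp o := (subset_insert _ _).trans hso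
          have hpo : p ∈ supp o := hso (mem_insert_self _ _)
          have hnorm : hammingNorm (u + o) = 4 := by
            have h1 := norm_add u o
            have h2 : supp u ∩ supp o = supp u := inter_eq_left.2 hsu
            rw [h2, ← hammingNorm_eq_card, hfour u hu, ho'.2] at h1
            omega
          have hmem : u + o ∈ K := by
            refine ⟨?_, by omega⟩
            have h1 := C.add_mem hu.1 ho'.1
            have h2 : u - w + o = u + o - w := by
              ext i
              exact (add_sub_swap' _ _ _).symm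
            rwa [h2] at h1
          refine ⟨u + o, (hmemKF _).2 hmem, ?_⟩
          rw [supp_add, Finset.mem_symmDiff]
          exact Or.inr ⟨hpo, hp⟩
      have hdisj : (KF : Set V).PairwiseDisjoint supp := by
        intro a ha b hb hab
        rw [Function.onFun, Finset.disjoint_iff_inter_eq_empty, ← card_eq_zero]
        have ha' := (hmemKF a).1 ha
        have hb' := (hmemKF b).1 hb
        exact (hpair a ha' b hb' hab).2.2
      have hcard := card_biUnion hdisj
      rw [hcov, card_univ, sum_congr rfl (g := fun _ => 4)] at hcard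
      · rw [sum_const] at hcard
        have hKFK : K = (KF : Set V) := by
          ext x
          simp [hmemKF]
        rw [hKFK, Set.ncard_coe_finset]
        simp at hcard
        omega
      · intro x hx
        rw [← hammingNorm_eq_card]
        exact hfour x ((hmemKF x).1 hx)
    · -- disjointness
      have h1 := (hpair u hu u' hu' hne').2.2
      rw [Finset.disjoint_iff_inter_eq_empty, ← card_eq_zero]
      exact h1

end Cfsg.Agent.Lib.GolayAbs.Steiner
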